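import Mathlib
import Cfsg.Agent.Lib.Huppert.Main
import Cfsg.Agent.Lib.Huppert.SL23Rec

/-!
# Zassenhaus: solvable groups regular on the non-zero vectors
-/

set_option autoImplicit false
set_option linter.unusedSectionVars false

namespace Cfsg.Agent.Lib.Huppert

open Subgroup Module
open scoped commutatorElement

universe u v w

/-- A non-trivial sign gives a subgroup of index two. -/
theorem index_two_of_ne_one {G : Type*} [Group G] {f : G →* ℤˣ} (h : ∃ g, f g ≠ 1) :
    ∃ N : Subgroup G, N.Normal ∧ N.index = 2 := by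
  refine ⟨f.ker, f.normal_ker, ?_⟩
  rw [Subgroup.index_ker]
  obtain ⟨g, hg⟩ := h
  have hs : f.range = ⊤ := by
    rw [eq_top_iff]
    rintro y -
    rcases Int.units_eq_one_or y with rfl | rfl
    · exact one_mem _
    · refine ⟨g, ?_⟩
      rcases Int.units_eq_one_or (f g) with h | h
      · exact absurd h hg
      · exact h
  rw [hs, Subgroup.card_top, Nat.card_eq_fintype_card, Fintype.card_units_int]

theorem card_inf_complement {G : Type*} [Group G] [Finite G] {P H₀ T : Subgroup G}
    (h : IsComplement' P H₀) (hPT : P ≤ T) :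
    Nat.card T = Nat.card P * Nat.card ↥(T ⊓ H₀) := by
  let f : P × ↥(T ⊓ H₀) → T := fun x => ⟨x.1.1 * x.2.1, mul_mem (hPT x.1.2) x.2.2.1⟩
  have hbij : Function.Bijective f := by
    constructor
    · rintro ⟨p, x⟩ ⟨p', x'⟩ hxy
      have h1 := congrArg Subtype.val hxy
      have h2 : ((p, ⟨x.1, x.2.2⟩) : P × H₀) = (p', ⟨x'.1, x'.2.2⟩) := h.1 h1
      have h3 := congrArg Prod.fst h2
      have h4 := congrArg Prod.snd h2
      refine Prod.ext h3 (Subtype.ext ?_)
      exact congrArg (fun w : H₀ => (w : G)) h4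
    · rintro ⟨t, ht⟩
      obtain ⟨⟨p, x⟩, hx⟩ := h.2 t
      have hx' : (p : G) * x = t := hx
      have hxT : (x : G) ∈ T := by
        have : (x : G) = (p : G)⁻¹ * t := by rw [← hx']; group
        rw [this]
        exact mul_mem (inv_mem (hPT p.2)) ht
      exact ⟨(p, ⟨x, hxT, x.2⟩), Subtype.ext hx'⟩
  rw [← Nat.card_prod]
  exact (Nat.card_congr (Equiv.ofBijective f hbij)).symm

theorem card_subgroupOf_eq_inf {G : Type*} [Group G] (T H : Subgroup G) :
    Nat.card (T.subgroupOf H) = Nat.card ↥(T ⊓ H) := by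
  rw [← Subgroup.inf_subgroupOf_right]
  exact Nat.card_congr (Subgroup.subgroupOfEquivOfLe inf_le_right).toEquiv

namespace SLData

variable {K : Type u} {V : Type v} {G : Type w} [Field K] [AddCommGroup V] [Module K V] [Group G]
  (D : SLData K V G)

section

variable [Finite K] [Finite V] [Nontrivial V] [Finite G]

section Reg

variable (hreg : ∀ v : V, v ≠ 0 → ∀ g : G, D.ρ g v = v → g = 1)

include hreg in
/-- No non-central element of prime order. -/
theorem no_order_r {r : ℕ} (hr : r.Prime) {t : G} (ht : t ∈ tee D.B) (htB : t ∉ D.B) : t ^ r ≠ 1 := by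
  intro htr
  obtain ⟨hk0, -⟩ := D.fix_key hr ht htB htr
  have hne : Module.End.eigenspace (D.lin ⟨t, tee_le_centralizer ht⟩) 1 ≠ ⊥ := by
    intro h
    rw [h] at hk0
    simp at hk0
  obtain ⟨v, hv, hv0⟩ := (Submodule.ne_bot_iff _).1 hne
  have hv' : D.ρ t v = v := by
    have := Module.End.mem_eigenspace_iff.1 hv
    simpa using this
  have := hreg v hv0 t hv'
  apply htB
  rw [this]
  exact one_mem _

include hreg in
/-- Regularity: `|G| = |V| - 1`. -/
theorem card_G_eq : Nat.card G = Nat.card V - 1 := by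
  classical
  letI : MulAction G V := MulAction.compHom V D.ρ
  have hsmul : ∀ (g : G) (v : V), g • v = D.ρ g v := fun _ _ => rfl
  obtain ⟨v₀, hv₀⟩ : ∃ v : V, v ≠ 0 := exists_ne 0
  have hO : MulAction.orbit G v₀ = ({0} : Set V)ᶜ := by
    ext w
    simp only [MulAction.mem_orbit_iff, Set.mem_compl_iff, Set.mem_singleton_iff, hsmul]
    constructor
    · rintro ⟨g, rfl⟩
      exact fun h => hv₀ (D.ρ_eq_zero.1 h)
    · intro hw
      exact D.trans v₀ w hv₀ hw
  have h1 := MulAction.index_stabilizer G v₀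
  rw [hO, Set.ncard_compl, Set.ncard_singleton] at h1
  rw [← h1]
  have hst : MulAction.stabilizer G v₀ = ⊥ := by
    rw [eq_bot_iff]
    intro g hg
    rw [MulAction.mem_stabilizer_iff, hsmul] at hg
    exact hreg v₀ hv₀ g hg
  rw [hst, Subgroup.index_bot]

end Reg

/-- No coset is fixed by `G`. -/
theorem no_fixed_coset (c : D.Cosets) : ¬ ∀ g : G, g • c = c := by
  intro hfix
  obtain ⟨_, ⟨u, hu, rfl⟩, hc1⟩ := c
  have huB : u ∉ D.B := fun h => hc1 ((QuotientGroup.eq_one_iff u).2 h)
  set π := QuotientGroup.mk' D.B with hπ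
  have hconj : ∀ g : G, π g * π u * (π g)⁻¹ = π u := by
    intro g
    have := congrArg Subtype.val (hfix g)
    exact this
  let A : Subgroup G := (Subgroup.zpowers (π u)).comap π
  have hmemA : ∀ x, x ∈ A ↔ ∃ n : ℤ, (π u) ^ n = π x := by
    intro x
    rw [Subgroup.mem_comap, Subgroup.mem_zpowers_iff]
  have hAn : A.Normal := by
    constructor
    intro x hx g
    obtain ⟨n, hn⟩ := (hmemA x).1 hx
    refine (hmemA _).2 ⟨n, ?_⟩
    rw [map_mul, map_mul, map_inv, ← hn, ← conj_zpow, hconj]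
  have hAform : ∀ x ∈ A, ∃ n : ℤ, ∃ b ∈ D.B, x = u ^ n * b := by
    intro x hx
    obtain ⟨n, hn⟩ := (hmemA x).1 hx
    refine ⟨n, (u ^ n)⁻¹ * x, ?_, by group⟩
    have h1 : π ((u ^ n)⁻¹ * x) = 1 := by
      rw [map_mul, map_inv, map_zpow, hn, inv_mul_cancel]
    exact (QuotientGroup.eq_one_iff _).1 h1
  have hAc : ∀ x ∈ A, ∀ y ∈ A, x * y = y * x := by
    intro x hx y hy
    obtain ⟨n, b, hb, rfl⟩ := hAform x hx
    obtain ⟨m, b', hb', rfl⟩ := hAform y hy
    have h1 : Commute b (u ^ m) := comm_of_mem_tee hb (zpow_mem hu m)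
    have h2 : Commute b' (u ^ n) := comm_of_mem_tee hb' (zpow_mem hu n)
    have h3 : Commute (u ^ n) (u ^ m) := (Commute.refl u).zpow_zpow n m
    have h4 : b * b' = b' * b := D.hB.comm _ hb _ hb'
    calc u ^ n * b * (u ^ m * b') = u ^ n * (b * u ^ m) * b' := by group
      _ = u ^ n * (u ^ m * b) * b' := by rw [h1.eq]
      _ = (u ^ n * u ^ m) * (b * b') := by group
      _ = (u ^ m * u ^ n) * (b' * b) := by rw [h3.eq, h4]
      _ = u ^ m * (u ^ n * b') * b := by group
      _ = u ^ m * (b' * u ^ n) * b := by rw [h2.eq]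
      _ = _ := by group
  have hBA : D.B ≤ A := by
    intro b hb
    refine (hmemA b).2 ⟨0, ?_⟩
    rw [zpow_zero]
    exact ((QuotientGroup.eq_one_iff b).2 hb).symm
  have hAB := D.hB.max A hAn hAc hBA
  apply huB
  rw [← hAB]
  exact (hmemA u).2 ⟨1, by simp⟩

/-- The number of non-trivial cosets in the quaternion case. -/
theorem index_eq_four (hT : tee D.B ≠ D.B) (h1 : ∀ x ∈ tee D.B, x ^ 2 ∈ D.B)
    (h2 : ∀ t ∈ tee D.B, t ∉ D.B → t ^ 2 ≠ 1)
    (h3 : ∀ r : ℕ, r.Prime → ∀ x ∈ tee D.B, x ∉ D.B → x ^ r ∈ D.B → r = 2) :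
    (D.B.subgroupOf (tee D.B)).index = 4 := by
  have ha := D.index_le_four h1 h2
  have ha0 : (D.B.subgroupOf (tee D.B)).index ≠ 0 := Subgroup.index_ne_zero_of_finite
  have ha1 : (D.B.subgroupOf (tee D.B)).index ≠ 1 := by
    intro h
    rw [Subgroup.index_eq_one, Subgroup.subgroupOf_eq_top] at h
    exact hT (le_antisymm h D.hB.le_tee)
  have ha3 : (D.B.subgroupOf (tee D.B)).index ≠ 3 := by
    intro h
    obtain ⟨x, hx, hxB, hxr⟩ := D.good_of_dvd_index Nat.prime_three (by rw [h])
    have := h3 3 Nat.prime_three x hx hxB hxr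
    omega
  have ha2 : (D.B.subgroupOf (tee D.B)).index ≠ 2 := by
    intro h
    have h4 : Nat.card D.Cosets = 1 := by
      rw [D.card_cosets, h]
    obtain ⟨hs, ⟨c⟩⟩ := Nat.card_eq_one_iff_unique.1 h4
    exact D.no_fixed_coset c (fun g => Subsingleton.elim _ _)
  omega

theorem cosets_finite : Finite D.Cosets := by
  unfold Cosets
  infer_instance

/-- The kernel of the action on cosets when `σ` is trivial. -/
theorem cosetPerm_ker [Group.IsSolvable G] (hσ : ∀ g, D.σ g = 1) : D.cosetPerm.ker = tee D.B := by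
  ext g
  rw [MonoidHom.mem_ker]
  constructor
  · intro h
    exact D.mem_tee_of_ker (hσ g) h
  · intro hg
    ext c
    show g • c = c
    apply Subtype.ext
    rw [cosets_smul_val]
    obtain ⟨_, ⟨u, hu, rfl⟩, hc1⟩ := c
    show QuotientGroup.mk' D.B g * QuotientGroup.mk' D.B u * (QuotientGroup.mk' D.B g)⁻¹
      = QuotientGroup.mk' D.B u
    have h2 : QuotientGroup.mk' D.B ⁅g, u⁆ = 1 :=
      (QuotientGroup.eq_one_iff _).2 (D.hB.comm_mem' hg hu)
    rw [commutatorElement_def, map_mul, map_mul, map_mul, map_inv, map_inv] at h2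
    exact mul_inv_eq_one.1 h2

/-- The order of `G` when the action on cosets is by even permutations. -/
theorem card_G_of_even [Group.IsSolvable G] [Fintype D.Cosets] [DecidableEq D.Cosets] (hσ : ∀ g, D.σ g = 1)
    (hc3 : Nat.card D.Cosets = 3) (hev : ∀ g, Equiv.Perm.sign (D.cosetPerm g) = 1) :
    Nat.card G = 3 * Nat.card (tee D.B) := by
  have hle : D.cosetPerm.range ≤ alternatingGroup D.Cosets := by
    rintro _ ⟨g, rfl⟩
    exact Equiv.Perm.mem_alternatingGroup.2 (hev g)
  haveI : Nontrivial D.Cosets := by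
    apply Finite.one_lt_card_iff_nontrivial.1
    omega
  have hA : Nat.card (alternatingGroup D.Cosets) = 3 := by
    have h1 := two_mul_nat_card_alternatingGroup (α := D.Cosets)
    rw [Nat.card_perm, hc3] at h1
    have : Nat.factorial 3 = 6 := rfl
    omega
  have hdvd : Nat.card D.cosetPerm.range ∣ 3 := hA ▸ Subgroup.card_dvd_of_le hle
  have hne : Nat.card D.cosetPerm.range ≠ 1 := by
    intro h
    obtain ⟨c⟩ : Nonempty D.Cosets := by
      have : Nat.card D.Cosets ≠ 0 := by omega
      exact (Nat.card_pos_iff.1 (Nat.pos_of_ne_zero this)).1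
    have htriv : D.cosetPerm.range = ⊥ := Subgroup.card_eq_one.1 h 
    refine D.no_fixed_coset c fun g => ?_
    have h2 : D.cosetPerm g ∈ D.cosetPerm.range := ⟨g, rfl⟩
    rw [htriv, Subgroup.mem_bot] at h2
    exact Equiv.congr_fun h2 c
  have h3 : Nat.card D.cosetPerm.range = 3 := by
    have := (Nat.dvd_prime Nat.prime_three).1 hdvd
    tauto
  rw [← Subgroup.card_mul_index D.cosetPerm.ker, Subgroup.index_ker, h3, D.cosetPerm_ker hσ, mul_comm]

/-- An element outside `T` moves a coset. -/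
theorem exists_moved [Group.IsSolvable G] (hσ : ∀ g, D.σ g = 1) {c : G} (hc : c ∉ tee D.B) :
    ∃ u ∈ tee D.B, u ∉ D.B ∧ c * u * c⁻¹ * u⁻¹ ∉ D.B := by
  have h1 : D.cosetPerm c ≠ 1 := by
    intro h
    apply hc
    rw [← D.cosetPerm_ker hσ]
    exact h
  obtain ⟨x, hx⟩ : ∃ x, D.cosetPerm c x ≠ x := by
    by_contra hcon
    push Not at hcon
    exact h1 (Equiv.ext hcon)
  obtain ⟨_, ⟨u, hu, rfl⟩, hc1⟩ := x
  refine ⟨u, hu, fun h => hc1 ((QuotientGroup.eq_one_iff u).2 h), fun h => hx ?_⟩
  apply Subtype.ext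
  show QuotientGroup.mk' D.B c * QuotientGroup.mk' D.B u * (QuotientGroup.mk' D.B c)⁻¹
      = QuotientGroup.mk' D.B u
  have h2 := (QuotientGroup.eq_one_iff _).2 h
  change QuotientGroup.mk' D.B (c * u * c⁻¹ * u⁻¹) = 1 at h2
  rw [map_mul, map_mul, map_mul, map_inv, map_inv] at h2
  exact mul_inv_eq_one.1 h2

/-- The case `|V| = 25`. -/
theorem iso_of_B_two [Group.IsSolvable G] (hσ : ∀ g, D.σ g = 1) (hG : Nat.card G = 24)
    (hT : Nat.card (tee D.B) = 8) (hB : Nat.card D.B = 2) (h1 : ∀ x ∈ tee D.B, x ^ 2 ∈ D.B)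
    (h2 : ∀ t ∈ tee D.B, t ∉ D.B → t ^ 2 ≠ 1) : Nonempty (G ≃* SL23') := by
  classical
  haveI : Fact (Nat.Prime 3) := ⟨Nat.prime_three⟩
  obtain ⟨⟨z, hzB⟩, hz1, huniq⟩ := (Nat.card_eq_two_iff' (1 : D.B)).1 hB
  have hz1' : z ≠ 1 := fun h => hz1 (Subtype.ext h)
  have hB2 : ∀ x ∈ D.B, x = 1 ∨ x = z := by
    intro x hx
    by_cases h : x = 1
    · exact Or.inl h
    · right
      have := huniq ⟨x, hx⟩ (fun h' => h (congrArg Subtype.val h'))
      exact congrArg Subtype.val this
  have hzz : z * z = 1 := by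
    rcases hB2 (z * z) (mul_mem hzB hzB) with h | h
    · exact h
    · exact absurd (mul_eq_left.1 h) hz1'
  have hsq : ∀ t ∈ tee D.B, t ≠ 1 → t ≠ z → t * t = z := by
    intro t ht ht1 htz
    have htB : t ∉ D.B := by
      intro h
      rcases hB2 t h with h | h
      · exact ht1 h
      · exact htz h
    have h3 := h1 t ht
    rw [pow_two] at h3
    rcases hB2 _ h3 with h4 | h4
    · exact absurd (by rw [pow_two]; exact h4) (h2 t ht htB)
    · exact h4
  obtain ⟨c, hc⟩ := exists_prime_orderOf_dvd_card' (G := G) 3 (by rw [hG]; norm_num)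
  have hc3 : c ^ 3 = 1 := by
    rw [← hc]
    exact pow_orderOf_eq_one c
  have hc1 : c ≠ 1 := by
    rintro rfl
    simp at hc
  have hcT : c ∉ tee D.B := by
    intro h
    have h3 : orderOf (⟨c, h⟩ : tee D.B) = 3 := by
      rw [Subgroup.orderOf_mk, hc]
    have h4 := orderOf_dvd_natCard (⟨c, h⟩ : tee D.B)
    rw [h3, hT] at h4
    omega
  obtain ⟨a, ha, haB, hmove⟩ := D.exists_moved hσ hcT
  refine iso_sl23_of_structure hG (tee D.B) D.hB.tee_normal hT (D.hB.le_tee hzB) hz1' hzz hsq hc3 hc1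
    ha ?_ ?_ ?_ ?_
  · rintro rfl
    exact haB (one_mem _)
  · rintro rfl
    exact haB hzB
  · intro h
    apply hmove
    rw [h, mul_inv_cancel]
    exact one_mem _
  · intro h
    apply hmove
    rw [h]
    simpa using hzB

/-- The case `|V| = 121`. -/
theorem iso_of_B_ten [Group.IsSolvable G] (hσ : ∀ g, D.σ g = 1) (hG : Nat.card G = 120)
    (hT : Nat.card (tee D.B) = 40) (hB : Nat.card D.B = 10) (h1 : ∀ x ∈ tee D.B, x ^ 2 ∈ D.B)
    (h2 : ∀ t ∈ tee D.B, t ∉ D.B → t ^ 2 ≠ 1) :
    Nonempty (G ≃* SL23' × Multiplicative (ZMod 5)) := by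
  classical
  haveI : Fact (Nat.Prime 3) := ⟨Nat.prime_three⟩
  haveI : Fact (Nat.Prime 5) := ⟨Nat.prime_five⟩
  have hcentral : ∀ b ∈ D.B, ∀ g : G, g * b = b * g := fun b hb g =>
    ((mem_centralizer_iff.1 (D.mem_centralizer_of_σ_eq_one (hσ g))) b hb).symm
  obtain ⟨p₀, hp₀⟩ := exists_prime_orderOf_dvd_card' (G := D.B) 5 (by rw [hB]; norm_num)
  set P : Subgroup G := Subgroup.zpowers (p₀ : G) with hP
  have hPcard : Nat.card P = 5 := by
    rw [hP, Nat.card_zpowers, Subgroup.orderOf_coe, hp₀]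
  have hPB : P ≤ D.B := by
    rw [hP, Subgroup.zpowers_le]
    exact p₀.2
  have hPcent : ∀ x ∈ P, ∀ g : G, g * x = x * g := fun x hx g => hcentral x (hPB hx) g
  have hPn : P.Normal := by
    constructor
    intro x hx g
    rw [hPcent x hx g]
    simpa using hx
  have hidx : P.index = 24 := by
    have := Subgroup.card_mul_index P
    rw [hPcard, hG] at this
    omega
  obtain ⟨H₀, hc⟩ := Subgroup.exists_right_complement'_of_coprime (N := P) (by
    rw [hPcard, hidx]
    norm_num)
  have hH₀card : Nat.card H₀ = 24 := by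
    have := hc.card_mul_card
    rw [hPcard, hG] at this
    omega
  have hdec : ∀ g : G, ∃ x ∈ P, ∃ h ∈ H₀, x * h = g := by
    intro g
    obtain ⟨⟨x, h⟩, hx⟩ := hc.2 g
    exact ⟨x, x.2, h, h.2, hx⟩
  have hdisj : ∀ x, x ∈ P → x ∈ H₀ → x = 1 := fun x h3 h4 => Subgroup.disjoint_def.1 hc.disjoint h3 h4
  have hH₀n : H₀.Normal := by
    constructor
    intro x hx g
    obtain ⟨y, hy, h, hh, rfl⟩ := hdec g
    have e : y * h * x * (y * h)⁻¹ = h * x * h⁻¹ := by
      have h3 := hPcent y hy (h * x * h⁻¹)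
      calc y * h * x * (y * h)⁻¹ = y * (h * x * h⁻¹) * y⁻¹ := by group
        _ = (h * x * h⁻¹) * y * y⁻¹ := by rw [h3]
        _ = h * x * h⁻¹ := by group
    rw [e]
    exact mul_mem (mul_mem hh hx) (inv_mem hh)
  have hTH : Nat.card ↥(tee D.B ⊓ H₀) = 8 := by
    have := card_inf_complement hc (hPB.trans D.hB.le_tee)
    rw [hT, hPcard] at this
    omega
  have hBH : Nat.card ↥(D.B ⊓ H₀) = 2 := by
    have := card_inf_complement hc hPB
    rw [hB, hPcard] at this
    omega
  obtain ⟨⟨z, hzB, hzH⟩, hz1, huniq⟩ := (Nat.card_eq_two_iff' (1 : ↥(D.B ⊓ H₀))).1 hBH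
  have hz1' : z ≠ 1 := fun h => hz1 (Subtype.ext h)
  have hB2 : ∀ x ∈ D.B, x ∈ H₀ → x = 1 ∨ x = z := by
    intro x hx hxH
    by_cases h : x = 1
    · exact Or.inl h
    · right
      have := huniq ⟨x, hx, hxH⟩ (fun h' => h (congrArg Subtype.val h'))
      exact congrArg Subtype.val this
  have hzz : z * z = 1 := by
    rcases hB2 (z * z) (mul_mem hzB hzB) (mul_mem hzH hzH) with h | h
    · exact h
    · exact absurd (mul_eq_left.1 h) hz1'
  have hsq : ∀ t ∈ tee D.B, t ∈ H₀ → t ≠ 1 → t ≠ z → t * t = z := by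
    intro t ht htH ht1 htz
    have htB : t ∉ D.B := by
      intro h
      rcases hB2 t h htH with h | h
      · exact ht1 h
      · exact htz h
    have h3 := h1 t ht
    rw [pow_two] at h3
    rcases hB2 _ h3 (mul_mem htH htH) with h4 | h4
    · exact absurd (by rw [pow_two]; exact h4) (h2 t ht htB)
    · exact h4
  obtain ⟨c, hc'⟩ := exists_prime_orderOf_dvd_card' (G := H₀) 3 (by rw [hH₀card]; norm_num)
  have hcG : orderOf (c : G) = 3 := by
    rw [Subgroup.orderOf_coe, hc']
  have hc3 : c ^ 3 = 1 := by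
    rw [← hc']
    exact pow_orderOf_eq_one c
  have hc1 : c ≠ 1 := by
    rintro rfl
    simp at hc'
  have hcT : (c : G) ∉ tee D.B := by
    intro h
    have h3 : orderOf (⟨c, h⟩ : tee D.B) = 3 := by
      rw [Subgroup.orderOf_mk, hcG]
    have h4 := orderOf_dvd_natCard (⟨c, h⟩ : tee D.B)
    rw [h3, hT] at h4
    omega
  obtain ⟨u, hu, huB, hmove⟩ := D.exists_moved hσ hcT
  obtain ⟨y, hy, a, haH, rfl⟩ := hdec u
  have hyT : y ∈ tee D.B := D.hB.le_tee (hPB hy)
  have haT : a ∈ tee D.B := by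
    have := mul_mem (inv_mem hyT) hu
    simpa using this
  have haB : a ∉ D.B := fun h => huB (mul_mem (hPB hy) h)
  have hmove' : (c : G) * a * (c : G)⁻¹ * a⁻¹ ∉ D.B := by
    intro h
    apply hmove
    have h3 := hPcent y hy (c : G)
    have h4 := hPcent y hy a
    have e : (c : G) * (y * a) * (c : G)⁻¹ * (y * a)⁻¹ = (c : G) * a * (c : G)⁻¹ * a⁻¹ := by
      calc (c : G) * (y * a) * (c : G)⁻¹ * (y * a)⁻¹
          = ((c : G) * y) * a * (c : G)⁻¹ * a⁻¹ * y⁻¹ := by group
        _ = (y * (c : G)) * a * (c : G)⁻¹ * a⁻¹ * y⁻¹ := by rw [h3]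
        _ = y * ((c : G) * a * (c : G)⁻¹ * a⁻¹) * y⁻¹ := by group
        _ = ((c : G) * a * (c : G)⁻¹ * a⁻¹) * y * y⁻¹ := by
            rw [hPcent y hy _]
        _ = _ := by group
    rw [e]
    exact h
  -- the isomorphism on `H₀`
  have hQ8 : Nat.card ((tee D.B).subgroupOf H₀) = 8 := by
    rw [card_subgroupOf_eq_inf, hTH]
  haveI : (tee D.B).Normal := D.hB.tee_normal
  obtain ⟨e₁⟩ := iso_sl23_of_structure (H := H₀) (z := ⟨z, hzH⟩) (c := c) (a := ⟨a, haH⟩) hH₀card
    ((tee D.B).subgroupOf H₀) inferInstance hQ8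
    (Subgroup.mem_subgroupOf.2 (D.hB.le_tee hzB)) (fun h => hz1' (congrArg Subtype.val h))
    (Subtype.ext hzz) (fun t ht ht1 htz => Subtype.ext (hsq t (Subgroup.mem_subgroupOf.1 ht) t.2
      (fun h => ht1 (Subtype.ext h)) (fun h => htz (Subtype.ext h)))) hc3 hc1
    (Subgroup.mem_subgroupOf.2 haT)
    (fun h => haB (by
      have : a = 1 := congrArg Subtype.val h
      rw [this]
      exact one_mem _))
    (fun h => haB (by
      have : a = z := congrArg Subtype.val h
      rw [this]
      exact hzB))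
    (fun h => hmove' (by
      have h3 : (c : G) * a * (c : G)⁻¹ = a := congrArg Subtype.val h
      rw [h3, mul_inv_cancel]
      exact one_mem _))
    (fun h => hmove' (by
      have h3 : (c : G) * a * (c : G)⁻¹ = z * a := congrArg Subtype.val h
      rw [h3]
      simpa using hzB))
  -- the product decomposition
  let f : H₀ × P →* G := MonoidHom.mk' (fun x => (x.1 : G) * (x.2 : G)) (by
    rintro ⟨h, x⟩ ⟨h', x'⟩
    show (h : G) * h' * (x * x') = h * x * (h' * x')
    have h3 := hPcent x x.2 (h' : G)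
    calc (h : G) * h' * (x * x') = h * (h' * x) * x' := by group
      _ = h * (x * h') * x' := by rw [h3]
      _ = _ := by group)
  have hbij : Function.Bijective f := by
    constructor
    · rw [injective_iff_map_eq_one]
      rintro ⟨h, x⟩ hf
      have h3 : (h : G) * x = 1 := hf
      have h4 : (x : G) = (h : G)⁻¹ := eq_inv_of_mul_eq_one_right h3
      have h5 : (x : G) = 1 := hdisj x x.2 (h4 ▸ inv_mem h.2)
      have h6 : (h : G) = 1 := by
        rw [h5, mul_one] at h3
        exact h3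
      exact Prod.ext (Subtype.ext h6) (Subtype.ext h5)
    · intro g
      obtain ⟨y', hy', h, hh, rfl⟩ := hdec g
      refine ⟨(⟨h, hh⟩, ⟨y', hy'⟩), ?_⟩
      exact (hPcent y' hy' h)
  have e₂ : P ≃* Multiplicative (ZMod 5) := mulEquivOfPrimeCardEq hPcard (by
    rw [Nat.card_eq_fintype_card]
    simp [ZMod.card])
  exact ⟨(MulEquiv.ofBijective f hbij).symm.trans (e₁.prodCongr e₂)⟩

include D in
/-- One-dimensional case: the squares give a subgroup of index two. -/
theorem index_two_of_finrank_one (hm : finrank K V = 1) (hch : ringChar K ≠ 2) :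
    ∃ N : Subgroup G, N.Normal ∧ N.index = 2 := by
  classical
  haveI : Fintype K := Fintype.ofFinite K
  obtain ⟨v₀, hv₀⟩ : ∃ v : V, v ≠ 0 := exists_ne 0
  have hspan := (finrank_eq_one_iff_of_nonzero' v₀ hv₀).1 hm
  have hinj : ∀ {a b : K}, a • v₀ = b • v₀ → a = b := fun h => smul_left_injective K hv₀ h
  choose a ha using fun g : G => hspan (D.ρ g v₀)
  have ha0 : ∀ g, a g ≠ 0 := by
    intro g h
    have := ha g
    rw [h, zero_smul] at this
    exact hv₀ (D.ρ_eq_zero.1 this.symm)
  have hamul : ∀ g h, a (g * h) = D.σ g (a h) * a g := by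
    intro g h
    apply hinj
    rw [ha, ρ_mul, ← ha h, D.semi, ← ha g, smul_smul]
  have hχσ : ∀ (σ : RingAut K) (x : K), quadraticChar K (σ x) = quadraticChar K x := by
    intro σ x
    by_cases hx : x = 0
    · simp [hx]
    have hσx : σ x ≠ 0 := by
      simpa using hx
    have hiff : IsSquare (σ x) ↔ IsSquare x := by
      constructor
      · intro h
        have := h.map (σ.symm : K ≃+* K)
        simpa using this
      · intro h
        exact h.map σ
    rcases quadraticChar_dichotomy hx with h1 | h1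
    · rw [h1]
      rw [quadraticChar_one_iff_isSquare hσx, hiff, ← quadraticChar_one_iff_isSquare hx]
      exact h1
    · rw [h1, quadraticChar_neg_one_iff_not_isSquare, hiff, ← quadraticChar_neg_one_iff_not_isSquare]
      exact h1
  let φ : G →* ℤ :=
    { toFun := fun g => quadraticChar K (a g)
      map_one' := by
        have h1 : a 1 = 1 := by
          apply hinj
          rw [ha, ρ_one, one_smul]
        simp [h1]
      map_mul' := by
        intro g h
        rw [hamul, map_mul, hχσ, mul_comm] }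
  refine index_two_of_ne_one (f := φ.toHomUnits) ?_
  obtain ⟨w, hw⟩ := FiniteField.exists_nonsquare hch
  have hw0 : w ≠ 0 := by
    rintro rfl
    exact hw IsSquare.zero
  obtain ⟨g, hg⟩ := D.trans v₀ (w • v₀) hv₀ (smul_ne_zero hw0 hv₀)
  refine ⟨g, fun h => ?_⟩
  have h1 : a g = w := by
    apply hinj
    rw [ha, hg]
  have h2 : φ g = 1 := by
    have := congrArg Units.val h
    simpa using this
  have h3 : quadraticChar K w = 1 := by
    rw [← h1]
    exact h2
  exact hw ((quadraticChar_one_iff_isSquare hw0).1 h3)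

end

end SLData

/-- **Zassenhaus' theorem** on solvable groups regular on the non-zero vectors. -/
theorem zassenhaus_regular
    (q : ℕ) [Fact q.Prime] {V : Type v} [AddCommGroup V] [Module (ZMod q) V] [Finite V] [Nontrivial V]
    {G : Type w} [Group G] [Finite G] (hsol : Group.IsSolvable G)
    (ρ : G →* (V ≃ₗ[ZMod q] V)) (hρ : Function.Injective ρ)
    (htrans : ∀ v w : V, v ≠ 0 → w ≠ 0 → ∃ g : G, ρ g v = w)
    (hreg : ∀ v : V, v ≠ 0 → ∀ g : G, ρ g v = v → g = 1) :
    ((∃ (F : Type) (_ : Field F) (_ : Fintype F) (e : V ≃+ F),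
        ∀ g : G, ∃ (a : F) (σ : F ≃+* F), ∀ v : V, e (ρ g v) = a * σ (e v)) ∨
      Nat.card V ∈ ({25, 49, 121, 529} : Set ℕ)) ∧
    (q ≠ 2 → (∃ N : Subgroup G, N.Normal ∧ N.index = 2) ∨
      (Nat.card V = 25 ∧ Nonempty (G ≃* Matrix.SpecialLinearGroup (Fin 2) (ZMod 3))) ∨
      (Nat.card V = 121 ∧ Nonempty (G ≃* Matrix.SpecialLinearGroup (Fin 2) (ZMod 3) × Multiplicative (ZMod 5)))) := by
  classical
  obtain ⟨B, hB⟩ := exists_isMaxAbNormal (G := G)
  obtain ⟨K, hK, hKfin, hmod, D, hD, -, hch⟩ := field_step q ρ hρ htrans B hB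
  have hreg' : ∀ v : V, v ≠ 0 → ∀ g : G, D.ρ g v = v → g = 1 := fun v hv g hg =>
    hreg v hv g (by rw [← hD]; exact hg)
  by_cases hm : finrank K V = 1
  · constructor
    · left
      obtain ⟨e₀, he₀⟩ := D.exists_addEquiv_of_finrank_eq_one hm
      refine transfer_field (fun g v => ρ g v) ⟨e₀, fun g => ?_⟩
      obtain ⟨a, σ, hσ⟩ := he₀ g
      exact ⟨a, σ, fun v => by rw [← hD]; exact hσ v⟩
    · intro hq
      left
      refine D.index_two_of_finrank_one hm ?_
      rw [ringChar.eq K q]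
      exact hq
  · have hT : tee D.B ≠ D.B := fun h => hm (D.finrank_eq_one_of_tee_eq h)
    have hinv : ∀ r : ℕ, r.Prime → ∀ t ∈ tee D.B, t ∉ D.B → t ^ r ≠ 1 :=
      fun r hr t ht htB => D.no_order_r hreg' hr ht htB
    have h2only : ∀ r : ℕ, r.Prime → ∀ x ∈ tee D.B, x ∉ D.B → x ^ r ∈ D.B → r = 2 := by
      intro r hr x hx hxB hxr
      by_contra hne
      obtain ⟨t, ht, htB, htr⟩ := D.exists_order_r hr hne hx hxB hxr
      exact hinv r hr t ht htB htr
    have h1 := D.two_only h2only
    have h2 : ∀ t ∈ tee D.B, t ∉ D.B → t ^ 2 ≠ 1 := fun t ht htB => hinv 2 Nat.prime_two t ht htB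
    obtain ⟨hm2, hs⟩ := D.quat_case hT h1 h2
    have ha4 := D.index_eq_four hT h1 h2 h2only
    have hcos : Nat.card D.Cosets = 3 := by
      rw [D.card_cosets, ha4]
    have hcardV : Nat.card V = Nat.card K ^ 2 := by
      rw [Module.natCard_eq_pow_finrank (K := K) (V := V), hm2]
    have hcardG : Nat.card G = Nat.card K ^ 2 - 1 := by
      rw [D.card_G_eq hreg', hcardV]
    have hs3 : Nat.card K ≠ 3 := by
      intro h3
      rw [h3] at hcardG
      haveI : Fact (Nat.Prime 2) := ⟨Nat.prime_two⟩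
      have hp : IsPGroup 2 G := IsPGroup.of_card (n := 3) (by rw [hcardG]; norm_num)
      haveI := D.cosets_finite
      obtain ⟨c, hc⟩ := hp.nonempty_fixed_point_of_prime_not_dvd_card D.Cosets (by rw [hcos]; norm_num)
      exact D.no_fixed_coset c (fun g => hc g)
    constructor
    · right
      rw [hcardV]
      rcases hs with h | h | h | h | h
      · exact absurd h hs3
      all_goals rw [h]; norm_num
    · intro hq
      -- `K` has prime order
      have hsp : (Nat.card K).Prime := by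
        rcases hs with h | h | h | h | h
        · exact absurd h hs3
        all_goals rw [h]; norm_num
      have hσ : ∀ g, D.σ g = 1 := by
        obtain ⟨p, d, hp, hd, hscard, hAut, -⟩ := card_ringAut K
        have hd1 : d = 1 := by
          by_contra hne
          have : ¬ (p ^ d).Prime := Nat.Prime.not_prime_pow (by omega)
          rw [← hscard] at this
          exact this hsp
        rw [hd1] at hAut
        obtain ⟨hsub, -⟩ := Nat.card_eq_one_iff_unique.1 hAut
        exact fun g => Subsingleton.elim _ _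
      haveI := D.cosets_finite
      haveI : Fintype D.Cosets := Fintype.ofFinite _
      by_cases hsign : ∃ g, Equiv.Perm.sign (D.cosetPerm g) ≠ 1
      · left
        exact index_two_of_ne_one (f := Equiv.Perm.sign.comp D.cosetPerm) hsign
      · right
        push Not at hsign
        have hG3 := D.card_G_of_even hσ hcos hsign
        have hTcard := D.card_tee
        rw [ha4] at hTcard
        have hBdvd := D.card_B_dvd (K := K) (V := V)
        rw [hTcard, hcardG] at hG3
        rcases hs with h | h | h | h | h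
        · exact absurd h hs3
        · left
          rw [h] at hG3 hBdvd
          norm_num at hG3
          have hB2 : Nat.card D.B = 2 := by omega
          refine ⟨by rw [hcardV, h]; norm_num, D.iso_of_B_two hσ (by rw [hcardG, h]; norm_num)
            (by rw [hTcard, hB2]) hB2 h1 h2⟩
        · exfalso
          rw [h] at hG3 hBdvd
          norm_num at hG3
          have hB4 : Nat.card D.B = 4 := by omega
          rw [hB4] at hBdvd
          revert hBdvd
          decide
        · right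
          rw [h] at hG3 hBdvd
          norm_num at hG3
          have hB2 : Nat.card D.B = 10 := by omega
          refine ⟨by rw [hcardV, h]; norm_num, D.iso_of_B_ten hσ (by rw [hcardG, h]; norm_num)
            (by rw [hTcard, hB2]) hB2 h1 h2⟩
        · exfalso
          rw [h] at hG3 hBdvd
          norm_num at hG3
          have hB4 : Nat.card D.B = 44 := by omega
          rw [hB4] at hBdvd
          revert hBdvd
          decide

end Cfsg.Agent.Lib.Huppert
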